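import Cfsg.Agent.Lib.Helper28.CoverM
import Cfsg.Agent.Lib.Helper28.G2Main
import Cfsg.Agent.Lib.Helper28.G2Mult.MatRel
import Cfsg.Agent.Lib.Helper28.G2Mult.L0.D
import Cfsg.Agent.Lib.Helper28.G2Mult.L1.D
import Cfsg.Agent.Lib.Helper28.G2Mult.L2.D

/-!
# The cover group of `G₂(4)` has order at most `2 · |G₂(4)|` (helper28)

`E0` is the cover group (`Cov.coverRels`) of the presentation `G2.PG` of `G₂(4)` on six
involutions `c, d, a, b, e, f`.  The subgroup `H1` generated by the first five generators has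
index at most `416` (certificate `L0`); `H1` has a subgroup of index at most `200` (certificate
`L1`, relations of the cover presentation of `J₂` on `c, d, a, b, e`, which hold in `E0`) that is
an image of the cover group `E2` of a presentation of `U₃(3)`, of order at most `6048`
(certificate `L2`).  Hence `|E0| ≤ 416 · 200 · 6048 = 2 · 251596800`.
-/

set_option autoImplicit false
set_option maxRecDepth 1000000

namespace Cfsg.Agent.Lib.Helper28.G2Mult

open Cfsg.Agent.Lib.Helper56.TC (Tabs ew ew_cons ew_nil ew_append ew_congr)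
open Cfsg.Agent.Lib.Helper28.Cov Cfsg.Agent.Lib.Helper28.CovL
open Cfsg.Agent.Lib.Helper28.G2 (PG RG gi gi_val gi_fin wordF invW relW u u_sq γ γ_ew
  γ_injective A)
open Cfsg.Agent.Lib.Helper28.G2Mult.Words
open Cfsg.Agent.Lib.Helper28.G2Mult.MatRel
open scoped commutatorElement

/-- the generator names `Fin n` -/
def nmF (n : ℕ) [NeZero n] (i : ℕ) : Fin n := ⟨i % n, Nat.mod_lt _ (NeZero.pos n)⟩

theorem nmF_idx (n : ℕ) [NeZero n] (y : Fin n) : y.val < n ∧ nmF n y.val = y :=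
  ⟨y.2, Fin.ext (Nat.mod_eq_of_lt y.2)⟩

theorem idx_nmF (n : ℕ) [NeZero n] (x : ℕ) (hx : x < n) : (nmF n x).val = x :=
  Nat.mod_eq_of_lt hx

/-! ### Level 2 -/

/-- the factorisations of level 2 -/
def fac2 (x : ℕ) : List (List ℕ) := facsL2.getD x []

/-- the relators of level 2 -/
def S2 : Set (FreeGroup (Fin 2)) := {x | ∃ l ∈ relL2, x = wd (nmF 2) l}

/-- the cover group of level 2 -/
abbrev E2 : Type := PresentedGroup (coverRels S2 (cw (nmF 2) (fun y => y.val) fac2))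

theorem lok2 : LOk 2 relL2 fac2 := ⟨by decide +kernel, by decide +kernel, by decide +kernel⟩

theorem card_E2 (hC : CertC L2.T) : Finite E2 ∧ Nat.card E2 ≤ 6048 := by
  obtain ⟨h1, h2⟩ := level_card_le (nmF 2) (fun y => y.val) 2 relL2 fac2 S2 hC rfl rfl
    (nmF_idx 2) (idx_nmF 2) (fun l hl => ⟨l, hl, rfl⟩) ⊥
    (fun s hs => absurd hs List.not_mem_nil)
  refine ⟨h1, ?_⟩
  have e : L2.T.N = 6048 := rfl
  rw [e, Subgroup.card_bot, mul_one] at h2
  exact h2

/-! ### Level 0: the cover group of `PG` -/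

/-- the factorisations of level 0 -/
def fac0 (x : ℕ) : List (List ℕ) := facsL0.getD x []

/-- the cover group of `G₂(4)` -/
abbrev E0 : Type := PresentedGroup (coverRels RG (cw gi (fun y : Fin 6 => y.val) fac0))

theorem lok0 : LOk 6 relL0 fac0 := ⟨by decide +kernel, by decide +kernel, by decide +kernel⟩

theorem gi_idx : ∀ y : Fin 6, y.val < 6 ∧ gi y.val = y := fun y => ⟨y.2, gi_fin y⟩

theorem idx_gi : ∀ x < 6, (gi x).val = x := by
  intro x hx
  rw [gi_val]
  exact Nat.mod_eq_of_lt hx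

/-- the generators of `E0` -/
noncomputable abbrev g0 : ℕ → E0 := cg gi RG (cw gi (fun y : Fin 6 => y.val) fac0)

theorem wd_double (w : List ℕ) : wd gi (w.map (2 * ·)) = wordF w := by
  unfold wd wordF ew
  rw [List.map_map]
  congr 1
  apply List.map_congr_left
  intro i _
  exact gl_even _ i

theorem relL0_eq : relL0 = (invW ++ relW).map (fun w => w.map (2 * ·)) := by decide +kernel

theorem relL0_mem : ∀ l ∈ relL0, wd gi l ∈ RG := by
  intro l hl
  rw [relL0_eq, List.mem_map] at hl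
  obtain ⟨w, hw, rfl⟩ := hl
  exact ⟨w, hw, wd_double w⟩

theorem RG_sub : ∀ s ∈ RG, ∃ l ∈ relL0, s = wd gi l := by
  rintro s ⟨w, hw, rfl⟩
  refine ⟨w.map (2 * ·), ?_, (wd_double w).symm⟩
  rw [relL0_eq]
  exact List.mem_map_of_mem hw

theorem hw0 : ∀ y : Fin 6, cw gi (fun y : Fin 6 => y.val) fac0 y ∈ commutator (FreeGroup (Fin 6)) :=
  cw_mem_commutator gi (fun y : Fin 6 => y.val) 6 relL0 fac0 gi_idx lok0

theorem hw0' : ∀ y : Fin 6, (FreeGroup.of y)⁻¹ * cw gi (fun y : Fin 6 => y.val) fac0 y ∈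
    Subgroup.normalClosure RG :=
  cw_mem_normalClosure gi (fun y : Fin 6 => y.val) 6 relL0 fac0 RG gi_idx lok0 relL0_mem

theorem g0_rel : ∀ r ∈ coverList 6 relL0 fac0, ew (gl g0) r = 1 :=
  cover_rel gi (fun y : Fin 6 => y.val) 6 relL0 fac0 RG idx_gi relL0_mem

/-! ### `U₃(3)` inside `PG` -/

/-- `u`, `v` in `PG` -/
noncomputable def hQ (i : ℕ) : PG := ew u (hW i)

theorem hW_mod (i : ℕ) : hW (i % 2) = hW i := by
  unfold hW
  rw [Nat.mod_mod]

theorem u_inv (i : ℕ) : (u i)⁻¹ = u i := inv_eq_of_mul_eq_one_left (u_sq i)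

theorem ew_u_reverse (w : List ℕ) : ew u w.reverse = (ew u w)⁻¹ := by
  induction w with
  | nil => simp [ew]
  | cons a t ih =>
    rw [List.reverse_cons, ew_append, ih, ew_cons, ew_cons, ew_nil, mul_one, mul_inv_rev, u_inv]

theorem ew_sub1 (a : ℕ) : ew u (sub1 a) = gl hQ a := by
  unfold sub1 gl hQ
  split_ifs
  · rfl
  · exact ew_u_reverse _

theorem ew_gWord (l : List ℕ) : ew u (gWord l) = ew (gl hQ) l := by
  unfold gWord
  rw [ew_flatMap]
  apply ew_congr
  intro a _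
  exact ew_sub1 a

theorem ew_A_eq (w w' : List ℕ) (h : ew A w = ew A w') : ew u w = ew u w' := by
  apply γ_injective
  apply Units.ext
  rw [γ_ew, γ_ew, h]

theorem ew_A_one (w : List ℕ) (h : ew A w = 1) : ew u w = 1 := by
  have h' : ew A w = ew A [] := by rw [h]; rfl
  have := ew_A_eq w [] h'
  rw [this]
  rfl

theorem rel2_PG : ∀ l ∈ relL2, ew (gl hQ) l = 1 := by
  intro l hl
  rw [← ew_gWord]
  exact ew_A_one _ (rel2_A l hl)

theorem subW_even : ∀ p ∈ subW, ∀ a ∈ p.1, a % 2 = 0 := by decide +kernel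

theorem subW_eq : ∀ p ∈ subW, ew (gl u) p.1 = ew (gl hQ) p.2 := by
  intro p hp
  rw [ew_gl_even u p.1 (subW_even p hp), ← ew_gWord]
  exact ew_A_eq _ _ (subW_A p hp)

theorem subs1_mem : ∀ s ∈ subs1, ∃ p ∈ subW, ∃ q ∈ subW, s = commL2 p.1 q.1 := by
  decide +kernel

theorem exists_φ2 : ∃ φ : E2 →* E0, ∀ s ∈ subs1, ew (gl g0) s ∈ φ.range := by
  have hw2 := cw_mem_commutator (nmF 2) (fun y => y.val) 2 relL2 fac2 (nmF_idx 2) lok2
  have hw2' := cw_mem_normalClosure (nmF 2) (fun y => y.val) 2 relL2 fac2 S2 (nmF_idx 2) lok2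
    (fun l hl => ⟨l, hl, rfl⟩)
  obtain ⟨π, hπ, hker⟩ := exists_proj RG (cw gi (fun y : Fin 6 => y.val) fac0) hw0'
  have hπg : ∀ i, π (g0 i) = u i := fun i => hπ _
  have eπ : (fun i => π (g0 i)) = u := funext hπg
  have hπew : ∀ w : List ℕ, π (ew g0 w) = ew u w := by
    intro w
    rw [Tabs.map_ew, eπ]
  have hπgl : ∀ l : List ℕ, π (ew (gl g0) l) = ew (gl u) l := by
    intro l
    rw [map_ew_gl, eπ]
  let h : Fin 2 → E0 := fun y => ew g0 (hW y.val)
  have hπh : ∀ i, π (h (nmF 2 i)) = hQ i := by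
    intro i
    show π (ew g0 (hW (i % 2))) = ew u (hW i)
    rw [hπew, hW_mod]
  have eh : (fun i => π (h (nmF 2 i))) = hQ := funext hπh
  have hπlift : ∀ l : List ℕ, π (FreeGroup.lift h (wd (nmF 2) l)) = ew (gl hQ) l := by
    intro l
    rw [lift_wd, map_ew_gl, eh]
  have hS : ∀ s ∈ S2, FreeGroup.lift h s ∈ Subgroup.center E0 := by
    rintro s ⟨l, hl, rfl⟩
    apply hker
    rw [MonoidHom.mem_ker, hπlift, rel2_PG l hl]
  obtain ⟨φ, -, -, hφ⟩ := cover_hom S2 _ hw2 hw2' (Subgroup.center E0) le_rfl h hS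
  refine ⟨φ, ?_⟩
  have key : ∀ p ∈ subW, ew (gl g0) p.1 * (φ (PresentedGroup.mk _ (wd (nmF 2) p.2)))⁻¹ ∈
      Subgroup.center E0 := by
    intro p hp
    have h1 := hφ (wd (nmF 2) p.2)
    have h2 : ew (gl g0) p.1 * (FreeGroup.lift h (wd (nmF 2) p.2))⁻¹ ∈ Subgroup.center E0 := by
      apply hker
      rw [MonoidHom.mem_ker, map_mul, map_inv, hπgl, hπlift, subW_eq p hp, mul_inv_cancel]
    have e : ew (gl g0) p.1 * (φ (PresentedGroup.mk _ (wd (nmF 2) p.2)))⁻¹ =
        (ew (gl g0) p.1 * (FreeGroup.lift h (wd (nmF 2) p.2))⁻¹) *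
          (φ (PresentedGroup.mk _ (wd (nmF 2) p.2)) *
            (FreeGroup.lift h (wd (nmF 2) p.2))⁻¹)⁻¹ := by group
    rw [e]
    exact Subgroup.mul_mem _ h2 (Subgroup.inv_mem _ h1)
  intro s hs
  obtain ⟨p, hp, q, hq, rfl⟩ := subs1_mem s hs
  rw [ew_commL2]
  exact comm_mem_range φ _ _ _ _ (key p hp) (key q hq)

/-! ### Level 1: the subgroup generated by the first five generators -/

/-- the generators `c, d, a, b, e` of `E0` -/
def gens5 : Set E0 := {x | ∃ i < 5, x = g0 i}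

/-- the subgroup of `E0` generated by `c, d, a, b, e` -/
noncomputable def H1 : Subgroup E0 := Subgroup.closure gens5

theorem g0_mem_H1 (i : ℕ) (hi : i < 5) : g0 i ∈ H1 := Subgroup.subset_closure ⟨i, hi, rfl⟩

/-- the generators of `H1` -/
noncomputable def h1 (i : ℕ) : H1 := if hi : i < 5 then ⟨g0 i, g0_mem_H1 i hi⟩ else 1

theorem coe_h1 (i : ℕ) (hi : i < 5) : ((h1 i : H1) : E0) = g0 i := by
  unfold h1
  rw [dif_pos hi]

theorem coe_ew_h1 (l : List ℕ) (hl : ∀ a ∈ l, a / 2 < 5) :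
    ((ew (gl h1) l : H1) : E0) = ew (gl g0) l := by
  have h := map_ew_gl H1.subtype h1 l
  have e : ((ew (gl h1) l : H1) : E0) = H1.subtype (ew (gl h1) l) := rfl
  rw [e, h]
  exact ew_gl_congr _ _ 5 (fun i hi => coe_h1 i hi) l hl

theorem h1_closure : Subgroup.closure {x : H1 | ∃ i < 5, x = h1 i} = ⊤ := by
  have e : {x : H1 | ∃ i < 5, x = h1 i} = ((↑) : Subgroup.closure gens5 → E0) ⁻¹' gens5 := by
    ext x
    constructor
    · rintro ⟨i, hi, rfl⟩
      exact ⟨i, hi, coe_h1 i hi⟩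
    · rintro ⟨i, hi, hx⟩
      exact ⟨i, hi, Subtype.ext (hx.trans (coe_h1 i hi).symm)⟩
  rw [e]
  exact Subgroup.closure_closure_coe_preimage

theorem sub01 : ∀ w ∈ coverList 5 relL1 fac0, w ∈ coverList 6 relL0 fac0 := by decide +kernel

theorem card_H1 (hC1 : CertC L1.T) (hC2 : CertC L2.T) :
    Finite H1 ∧ Nat.card H1 ≤ 200 * 6048 := by
  obtain ⟨φ, hφ⟩ := exists_φ2
  obtain ⟨f2, c2⟩ := card_E2 hC2
  have : Finite E2 := f2
  have hfin : Finite φ.range := Finite.of_surjective _ φ.rangeRestrict_surjective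
  have hcard : Nat.card φ.range ≤ 6048 :=
    le_trans (Nat.card_le_card_of_surjective _ φ.rangeRestrict_surjective) c2
  let K : Subgroup H1 := φ.range.subgroupOf H1
  let ι : K → φ.range := fun x => ⟨x.1.1, Subgroup.mem_subgroupOf.mp x.2⟩
  have hι : Function.Injective ι := by
    intro x y hxy
    apply Subtype.ext
    apply Subtype.ext
    exact congrArg (fun z : φ.range => (z : E0)) hxy
  have hKfin : Finite K := Finite.of_injective ι hι
  have hKcard : Nat.card K ≤ 6048 := le_trans (Nat.card_le_card_of_injective ι hι) hcard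
  have hK10 : L1.T.K = 2 * 5 := rfl
  have hrel : ∀ w ∈ L1.T.rels1, ew (gl h1) w = 1 := by
    intro w hw
    apply Subtype.ext
    have hlt : ∀ a ∈ w, a / 2 < 5 := by
      intro a ha
      have := hC1.hrelK w hw a ha
      rw [hK10] at this
      omega
    rw [coe_ew_h1 w hlt]
    exact g0_rel w (sub01 w hw)
  have hsub : ∀ s ∈ L1.T.subs, ew (gl h1) s ∈ K := by
    intro s hs
    have hlt : ∀ a ∈ s, a / 2 < 5 := by
      intro a ha
      have := hC1.hsubK s hs a ha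
      rw [hK10] at this
      omega
    rw [Subgroup.mem_subgroupOf, coe_ew_h1 s hlt]
    exact hφ s hs
  obtain ⟨h1f, h1c⟩ := hC1.card_le K h1 5 hK10 h1_closure hrel hsub
  refine ⟨h1f, le_trans h1c ?_⟩
  have e : L1.T.N = 200 := rfl
  rw [e]
  exact Nat.mul_le_mul_left _ hKcard

theorem ew_mem_H1 (l : List ℕ) (hl : ∀ a ∈ l, a / 2 < 5) : ew (gl g0) l ∈ H1 := by
  rw [← coe_ew_h1 l hl]
  exact SetLike.coe_mem _

theorem subs0_lt : ∀ s ∈ subs0, ∀ a ∈ s, a / 2 < 5 := by decide +kernel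

theorem card_E0 (hC0 : CertC L0.T) (hC1 : CertC L1.T) (hC2 : CertC L2.T) :
    Finite E0 ∧ Nat.card E0 ≤ 503193600 := by
  obtain ⟨f1, c1⟩ := card_H1 hC1 hC2
  have : Finite H1 := f1
  obtain ⟨h1, h2⟩ := level_card_le gi (fun y : Fin 6 => y.val) 6 relL0 fac0 RG hC0 rfl rfl
    gi_idx idx_gi relL0_mem H1 (fun s hs => ew_mem_H1 s (subs0_lt s hs))
  refine ⟨h1, le_trans h2 ?_⟩
  have e : L0.T.N = 416 := rfl
  rw [e]
  calc 416 * Nat.card H1 ≤ 416 * (200 * 6048) := Nat.mul_le_mul_left _ c1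
    _ = 503193600 := by norm_num

end Cfsg.Agent.Lib.Helper28.G2Mult
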