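import Cfsg.Agent.Lib.Helper28.G2Mult.LowTab

set_option autoImplicit false
set_option maxRecDepth 1000000

namespace Cfsg.Agent.Lib.Helper28.G2Mult.Low

theorem qRel_ok_6 : qrelOK qRel_6 = true := by decide +kernel

end Cfsg.Agent.Lib.Helper28.G2Mult.Low
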