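import Cfsg.Agent.Lib.Helper28.G2Mult.Chain
import Cfsg.Agent.Lib.Helper28.G2Mult.LowC0
import Cfsg.Agent.Lib.Helper28.G2Mult.LowC1
import Cfsg.Agent.Lib.Helper28.G2Mult.LowC2
import Cfsg.Agent.Lib.Helper28.G2Mult.LowC3
import Cfsg.Agent.Lib.Helper28.G2Mult.LowC4
import Cfsg.Agent.Lib.Helper28.G2Mult.LowC5
import Cfsg.Agent.Lib.Helper28.G2Mult.LowC6
import Cfsg.Agent.Lib.Helper28.G2Mult.LowC7

/-!
# The cover group of `G₂(4)` is a proper central extension (helper28)

The cover group `E0` acts on 8064 points (tables of `LowTab`), and the square of the generator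
`d`, which is trivial in `G₂(4)`, moves the point `0`.  Hence the kernel of the projection
`E0 → G2.PG` is not trivial.
-/

set_option autoImplicit false
set_option maxRecDepth 1000000

namespace Cfsg.Agent.Lib.Helper28.G2Mult.Low

open Cfsg.Agent.Lib.Helper56.TC (ew ew_cons ew_nil ew_append ew_congr forceN forceN_eq fldA Tabs)
open Cfsg.Agent.Lib.Helper56.TC.Tabs (allLt allLt_iff)
open Cfsg.Agent.Lib.Helper28.Cov Cfsg.Agent.Lib.Helper28.CovL
open Cfsg.Agent.Lib.Helper28.G2 (PG RG gi gi_val gi_fin u u_sq)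
open Cfsg.Agent.Lib.Helper28.G2Mult.Words
open scoped commutatorElement

theorem qinv_all : ∀ a < 12, qinvOK a (li a) = true := by
  intro a ha
  interval_cases a
  · exact qinv_0
  · exact qinv_1
  · exact qinv_2
  · exact qinv_3
  · exact qinv_4
  · exact qinv_5
  · exact qinv_6
  · exact qinv_7
  · exact qinv_8
  · exact qinv_9
  · exact qinv_10
  · exact qinv_11

theorem qπ_lt (a x : ℕ) (ha : a < 12) (hx : x < 8064) : qπ a x < 8064 := by
  have h := (allLt_iff _ _).mp (qinv_all a ha) x hx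
  rw [Bool.and_eq_true] at h
  exact Nat.blt_eq.mp h.1

theorem qπ_li (a x : ℕ) (ha : a < 12) (hx : x < 8064) : qπ (li a) (qπ a x) = x := by
  have h := (allLt_iff _ _).mp (qinv_all a ha) x hx
  rw [Bool.and_eq_true] at h
  exact Nat.eq_of_beq_eq_true h.2

theorem li_even (i : ℕ) : li (2 * i) = 2 * i + 1 := by
  unfold li
  rw [if_pos (by omega)]

theorem li_odd (i : ℕ) : li (2 * i + 1) = 2 * i := by
  unfold li
  rw [if_neg (by omega)]
  omega

/-- the permutation of the generator `i` (taken mod 6) -/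
noncomputable def ρ (i : ℕ) : Equiv.Perm (Fin 8064) where
  toFun x := ⟨qπ (2 * (i % 6)) x.val, qπ_lt _ _ (by omega) x.isLt⟩
  invFun x := ⟨qπ (2 * (i % 6) + 1) x.val, qπ_lt _ _ (by omega) x.isLt⟩
  left_inv x := by
    apply Fin.ext
    have h := qπ_li (2 * (i % 6)) x.val (by omega) x.isLt
    rw [li_even] at h
    exact h
  right_inv x := by
    apply Fin.ext
    have h := qπ_li (2 * (i % 6) + 1) x.val (by omega) x.isLt
    rw [li_odd] at h
    exact h

theorem ρ_mod (i : ℕ) : ρ (i % 6) = ρ i := by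
  apply Equiv.ext
  intro x
  apply Fin.ext
  show qπ (2 * (i % 6 % 6)) x.val = qπ (2 * (i % 6)) x.val
  rw [Nat.mod_mod]

theorem gl_ρ_val (a : ℕ) (ha : a < 12) (x : Fin 8064) : ((gl ρ a) x).val = qπ a x.val := by
  unfold gl
  split_ifs with h
  · show qπ (2 * (a / 2 % 6)) x.val = qπ a x.val
    have e : 2 * (a / 2 % 6) = a := by omega
    rw [e]
  · show qπ (2 * (a / 2 % 6) + 1) x.val = qπ a x.val
    have e : 2 * (a / 2 % 6) + 1 = a := by omega
    rw [e]

theorem ew_ρ_val (l : List ℕ) (hl : ∀ a ∈ l, a < 12) (x : Fin 8064) :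
    ((ew (gl ρ) l) x).val = qapp l x.val := by
  induction l with
  | nil => rfl
  | cons a t ih =>
    rw [ew_cons, Equiv.Perm.mul_apply, gl_ρ_val a (hl a List.mem_cons_self),
      ih (fun b hb => hl b (List.mem_cons_of_mem _ hb)), qapp_cons]

theorem qrelOK_append (a b : List (List ℕ)) : qrelOK (a ++ b) = (qrelOK a && qrelOK b) := by
  unfold qrelOK
  rw [List.all_append]

theorem covAll_ok : qrelOK covAll = true := by
  unfold covAll
  simp only [qrelOK_append, qRel_ok_0, qRel_ok_1, qRel_ok_2, qRel_ok_3, qRel_ok_4, qRel_ok_5,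
    qRel_ok_6, qRel_ok_7, Bool.and_self]

theorem ew_ρ_one (l : List ℕ) (hl : l ∈ covAll) : ew (gl ρ) l = 1 := by
  apply Equiv.ext
  intro x
  apply Fin.ext
  rw [ew_ρ_val l (covAll_lt l hl)]
  have h := covAll_ok
  unfold qrelOK at h
  rw [List.all_eq_true] at h
  have h2 := (allLt_iff _ _).mp (h l hl) x.val x.isLt
  exact Nat.eq_of_beq_eq_true h2

theorem ρ_rel : ∀ r ∈ coverRels RG (cw gi (fun y : Fin 6 => y.val) fac0),
    FreeGroup.lift (fun y : Fin 6 => ρ y.val) r = 1 := by
  have hρ : (fun i => (fun y : Fin 6 => ρ y.val) (gi i)) = ρ := by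
    funext i
    show ρ (gi i).val = ρ i
    rw [gi_val, ρ_mod]
  rintro r (⟨y, s, hs, rfl⟩ | ⟨y, rfl⟩)
  · obtain ⟨l, hl, rfl⟩ := RG_sub s hs
    rw [map_commutatorElement, FreeGroup.lift_apply_of, lift_wd, hρ]
    have h := ew_ρ_one (commL (2 * y.val) l) (covAll_comm y.val y.isLt l hl)
    rw [ew_commL, gl_even] at h
    exact h
  · have h3 : (FreeGroup.of y)⁻¹ * cw gi (fun y : Fin 6 => y.val) fac0 y =
        wd gi (fac0 y.val).flatten := by
      unfold cw
      rw [inv_mul_cancel_left]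
    rw [h3, lift_wd, hρ]
    exact ew_ρ_one _ (covAll_fac y.val y.isLt)

/-- the permutation representation of the cover group -/
noncomputable def σρ : E0 →* Equiv.Perm (Fin 8064) :=
  PresentedGroup.toGroup (rels := coverRels RG (cw gi (fun y : Fin 6 => y.val) fac0))
    (f := fun y : Fin 6 => ρ y.val) ρ_rel

theorem σρ_g0 (i : ℕ) : σρ (g0 i) = ρ i := by
  show PresentedGroup.toGroup (rels := coverRels RG (cw gi (fun y : Fin 6 => y.val) fac0))
    (f := fun y : Fin 6 => ρ y.val) ρ_rel (PresentedGroup.of (gi i)) = ρ i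
  rw [PresentedGroup.toGroup.of, gi_val, ρ_mod]

/-- The projection of the cover group onto `PG` is surjective with central kernel, and the
kernel is not trivial. -/
theorem exists_proj_ne : ∃ π : E0 →* PG, Function.Surjective π ∧
    π.ker ≤ Subgroup.center E0 ∧ ∃ z ∈ π.ker, z ≠ 1 := by
  obtain ⟨π, hπ, hker⟩ := exists_proj RG (cw gi (fun y : Fin 6 => y.val) fac0) hw0'
  refine ⟨π, ?_, hker, ew (gl g0) [2, 2], ?_, ?_⟩
  · intro y
    obtain ⟨x, rfl⟩ := PresentedGroup.mk_surjective RG y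
    exact ⟨PresentedGroup.mk _ x, hπ x⟩
  · have hπg : ∀ i, π (g0 i) = u i := fun i => hπ _
    have eπ : (fun i => π (g0 i)) = u := funext hπg
    rw [MonoidHom.mem_ker, map_ew_gl, eπ]
    have e : ew (gl u) [2, 2] = u 1 * u 1 := by
      rw [ew_cons, ew_cons, ew_nil, mul_one]
      rfl
    rw [e, u_sq]
  · intro h
    have h2 := congrArg σρ h
    rw [map_one, map_ew_gl] at h2
    have e : (fun i => σρ (g0 i)) = ρ := funext σρ_g0
    rw [e] at h2
    have h3 : ((ew (gl ρ) [2, 2]) (⟨0, by norm_num⟩ : Fin 8064)).val = 0 := by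
      rw [h2]
      rfl
    rw [ew_ρ_val [2, 2] (by decide)] at h3
    have h4 := qmove
    have h5 : qapp [2, 2] 0 = 0 := h3
    rw [h5] at h4
    exact absurd h4 (by decide)

end Cfsg.Agent.Lib.Helper28.G2Mult.Low
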