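import Cfsg.Prelude.Def_KGroupFacts
import Cfsg.Agent.Lib.Helper36.ChevMapBase
import Cfsg.Agent.Lib.Helper28.G2Mult.Low

/-!
# The Schur multiplier of `G₂(4)` is cyclic of order 2 (helper28)

The cover group `E0` of the presentation `G2.PG` of `G₂(4)` has order at most `2 · |G₂(4)|`
(`card_E0`) and its projection onto `G₂(4)` has a non-trivial central kernel
(`Low.exists_proj_ne`); `E0` is perfect.  So `E0` is a stem extension with kernel of order 2,
and every finite stem extension is an image of `E0` (`Cov.stem_surj`), hence has a kernel of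
order at most 2.  A field with four elements is isomorphic to the model `F4`, which transports
the presentation to `chevG2.group F`.
-/

set_option autoImplicit false

namespace Cfsg.Agent.Lib.Helper28.G2Mult

open Cfsg.Agent.Lib.Helper28.Cov Cfsg.Agent.Lib.Helper28.CovL
open Cfsg.Agent.Lib.Helper28.G2 (PG RG gi)
open Cfsg.Lie Cfsg.Agent.Lib.Helper36

universe u

section generic

theorem card_ker_mul {Γ G : Type*} [Group Γ] [Group G] (σ : Γ →* G)
    (hs : Function.Surjective σ) : Nat.card σ.ker * Nat.card G = Nat.card Γ := by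
  have h := Subgroup.card_mul_index σ.ker
  rw [Subgroup.index_ker] at h
  have e : Nat.card σ.range = Nat.card G := by
    have : σ.range = ⊤ := MonoidHom.range_eq_top.mpr hs
    rw [this]
    exact Nat.card_congr (Subgroup.topEquiv (G := G)).toEquiv
  rw [e] at h
  exact h

theorem nonempty_equiv_zmod2 {K : Type*} [Group K] (h : Nat.card K = 2) :
    Nonempty (K ≃* Multiplicative (ZMod 2)) := by
  have : Fact (Nat.Prime 2) := ⟨Nat.prime_two⟩
  have : IsCyclic K := isCyclic_of_prime_card h
  refine ⟨mulEquivOfCyclicCardEq ?_⟩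
  rw [h, Nat.card_eq_fintype_card, Fintype.card_multiplicative, ZMod.card]

theorem exists_surj_zmod2 {K : Type*} [Group K] [Finite K] (h : Nat.card K ≤ 2) :
    ∃ f : Multiplicative (ZMod 2) →* K, Function.Surjective f := by
  have hpos : 0 < Nat.card K := Nat.card_pos
  have h12 : Nat.card K = 1 ∨ Nat.card K = 2 := by omega
  rcases h12 with h1 | h2
  · refine ⟨1, ?_⟩
    intro x
    have : Subsingleton K := (Nat.card_eq_one_iff_unique.mp h1).1
    exact ⟨1, Subsingleton.elim _ _⟩
  · obtain ⟨e⟩ := nonempty_equiv_zmod2 h2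
    exact ⟨e.symm.toMonoidHom, e.symm.surjective⟩

theorem cover_perfect {β : Type*} (S : Set (FreeGroup β)) (w : β → FreeGroup β)
    (hw : ∀ y, w y ∈ commutator (FreeGroup β)) :
    commutator (PresentedGroup (coverRels S w)) = ⊤ := by
  rw [eq_top_iff, ← PresentedGroup.closure_range_of, Subgroup.closure_le]
  rintro _ ⟨y, rfl⟩
  have h1 : PresentedGroup.mk (coverRels S w) ((FreeGroup.of y)⁻¹ * w y) = 1 :=
    PresentedGroup.one_of_mem (mem_coverRels_right S w y)
  rw [map_mul, map_inv, inv_mul_eq_one] at h1
  have h2 : PresentedGroup.mk (coverRels S w) (w y) ∈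
      commutator (PresentedGroup (coverRels S w)) := by
    have hle : (commutator (FreeGroup β)).map (PresentedGroup.mk (coverRels S w)) ≤
        commutator (PresentedGroup (coverRels S w)) := by
      rw [commutator_def, commutator_def, Subgroup.map_commutator]
      exact Subgroup.commutator_mono le_top le_top
    exact hle ⟨_, hw y, rfl⟩
  rw [← h1] at h2
  exact h2

end generic

section field

variable {F₁ : Type*} {F₂ : Type*} [Field F₁] [Field F₂]

theorem glMap_group2 (D : ChevalleyDatum) (f : F₁ →+* F₂) (g : GL D.Idx F₁)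
    (hg : g ∈ D.group F₁) : glMap D f g ∈ D.group F₂ := by
  have h : D.group F₁ ≤ (D.group F₂).comap (glMap D f) := by
    unfold ChevalleyDatum.group
    rw [Subgroup.closure_le]
    rintro x ⟨r, t, hx⟩
    exact Subgroup.subset_closure ⟨r, f t, by rw [coe_glMap, hx, xMat_map_hom]⟩
  exact h hg

theorem glMap_glMap (D : ChevalleyDatum) (e : F₁ ≃+* F₂) (g : GL D.Idx F₂) :
    glMap D (e : F₁ →+* F₂) (glMap D (e.symm : F₂ →+* F₁) g) = g := by
  apply Units.ext
  rw [coe_glMap, coe_glMap, Matrix.map_map]
  ext i j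
  simp

/-- a ring isomorphism of the fields induces an isomorphism of the Chevalley groups -/
noncomputable def groupEquivOfRingEquiv (D : ChevalleyDatum) (e : F₁ ≃+* F₂) :
    D.group F₁ ≃* D.group F₂ :=
  MulEquiv.ofBijective
    (((glMap D (e : F₁ →+* F₂)).comp (D.group F₁).subtype).codRestrict (D.group F₂)
      (fun g => glMap_group2 D _ g.1 g.2))
    ⟨by
      intro a b h
      apply Subtype.ext
      exact glMap_injective D _ (congrArg Subtype.val h),
     by
      intro g
      exact ⟨⟨glMap D (e.symm : F₂ →+* F₁) g.1, glMap_group2 D _ g.1 g.2⟩,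
        Subtype.ext (glMap_glMap D e g.1)⟩⟩

end field

/-- The Schur multiplier of `G₂(4)` is cyclic of order 2. -/
theorem g2_4_multiplier (hC0 : CertC L0.T) (hC1 : CertC L1.T) (hC2 : CertC L2.T)
    {F : Type u} [Field F] [Fintype F] (hF : Fintype.card F = 4) :
    Cfsg.HasCyclicSchurMultiplier ↥(chevG2.group F) 2 := by
  obtain ⟨f0, c0⟩ := card_E0 hC0 hC1 hC2
  have : Finite E0 := f0
  obtain ⟨π, hπs, hπc, z, hz, hz1⟩ := Low.exists_proj_ne
  have hK : Fintype.card G2.K = Fintype.card F := by
    rw [hF]
    exact Cfsg.Agent.Lib.Helper19.F4.card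
  let ψ : G2.K ≃+* F := FiniteField.ringEquivOfCardEq hK
  let e : PG ≃* ↥(chevG2.group F) := G2.eqvG.trans (groupEquivOfRingEquiv chevG2 ψ)
  have hPG := G2.card_PG
  have hG : Nat.card ↥(chevG2.group F) = 251596800 := by
    rw [← Nat.card_congr e.toEquiv]
    exact hPG
  have hE0 : Nat.card π.ker * 251596800 = Nat.card E0 := by
    have h1 := card_ker_mul π hπs
    rw [hPG] at h1
    exact h1
  have hkπ : Nat.card π.ker = 2 := by
    have hle : Nat.card π.ker ≤ 2 := by
      by_contra hcon
      rw [not_le] at hcon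
      have : 3 * 251596800 ≤ Nat.card π.ker * 251596800 := Nat.mul_le_mul_right _ hcon
      omega
    have hne : π.ker ≠ ⊥ := by
      intro hb
      rw [hb, Subgroup.mem_bot] at hz
      exact hz1 hz
    have hgt := (Subgroup.one_lt_card_iff_ne_bot π.ker).mpr hne
    omega
  let σ : ULift.{u} E0 →* ↥(chevG2.group F) :=
    (e.toMonoidHom.comp π).comp (MulEquiv.ulift (α := E0)).toMonoidHom
  have hσ : ∀ x : ULift.{u} E0, σ x = e (π x.down) := fun x => rfl
  have hσs : Function.Surjective σ := by
    intro g
    obtain ⟨y, hy⟩ := hπs (e.symm g)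
    refine ⟨ULift.up y, ?_⟩
    rw [hσ, hy, e.apply_symm_apply]
  have hperf : commutator (ULift.{u} E0) = ⊤ := by
    have h0 := cover_perfect RG (cw gi (fun y : Fin 6 => y.val) fac0) hw0
    let f : E0 →* ULift.{u} E0 := (MulEquiv.ulift (α := E0)).symm.toMonoidHom
    have hf : Function.Surjective f := (MulEquiv.ulift (α := E0)).symm.surjective
    have h1 := Subgroup.map_commutator (⊤ : Subgroup E0) ⊤ f
    rw [Subgroup.map_top_of_surjective f hf, ← commutator_def, ← commutator_def, h0,
      Subgroup.map_top_of_surjective f hf] at h1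
    exact h1.symm
  refine ⟨⟨ULift.{u} E0, inferInstance, inferInstance, σ, ⟨hσs, ?_, ?_⟩, ?_⟩, ?_⟩
  · intro x hx
    rw [MonoidHom.mem_ker, hσ] at hx
    have h1 : π x.down = 1 := by
      apply e.injective
      rw [map_one]
      exact hx
    have h2 := hπc (MonoidHom.mem_ker.mpr h1)
    rw [Subgroup.mem_center_iff] at h2 ⊢
    intro g
    apply ULift.ext
    exact h2 g.down
  · rw [hperf]
    exact le_top
  · apply nonempty_equiv_zmod2
    have h1 := card_ker_mul σ hσs
    rw [hG] at h1
    have h2 : Nat.card (ULift.{u} E0) = Nat.card E0 := Nat.card_congr Equiv.ulift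
    rw [h2, ← hE0, hkπ] at h1
    omega
  · intro Γ _ _ τ hτ
    let τ' : Γ →* PG := e.symm.toMonoidHom.comp τ
    have hk : τ'.ker = τ.ker := by
      ext x
      rw [MonoidHom.mem_ker, MonoidHom.mem_ker]
      show e.symm (τ x) = 1 ↔ τ x = 1
      constructor
      · intro h
        apply e.symm.injective
        rw [map_one]
        exact h
      · intro h
        rw [h, map_one]
    have hτ' : Cfsg.IsStemExtension τ' := by
      obtain ⟨hs, hc, hm⟩ := hτ
      refine ⟨e.symm.surjective.comp hs, ?_, ?_⟩
      · rw [hk]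
        exact hc
      · rw [hk]
        exact hm
    obtain ⟨ψ', hψ'⟩ := stem_surj RG (cw gi (fun y : Fin 6 => y.val) fac0) hw0 hw0' τ' hτ'
    have h1 : Nat.card Γ ≤ Nat.card E0 := Nat.card_le_card_of_surjective _ hψ'
    have h2 := card_ker_mul τ hτ.1
    rw [hG] at h2
    have hle : Nat.card τ.ker ≤ 2 := by
      by_contra hcon
      rw [not_le] at hcon
      have : 3 * 251596800 ≤ Nat.card τ.ker * 251596800 := Nat.mul_le_mul_right _ hcon
      omega
    exact exists_surj_zmod2 hle

end Cfsg.Agent.Lib.Helper28.G2Mult
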